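import Cfsg.Agent.AutOrth.TwoElements
import Cfsg.Agent.OrthGeo.Forms

/-! Automorphisms of the plus-type orthogonal simple groups of dimension at least ten. -/

set_option autoImplicit false

namespace CfsgLib.AutOrth

open CfsgLib.OrthGeo

/-- Every automorphism of `PΩ⁺_{2m}(q)` with `m ≥ 5` is induced by a semisimilarity. -/
theorem isSemisim_quadFormPlus {F : Type*} [Field F] [Fintype F] {m : ℕ} (hm : 5 ≤ m)
    (β : MulAut (Cfsg.POmega F (Cfsg.quadFormPlus m F))) : IsSemisim (Cfsg.quadFormPlus m F) β :=
  isSemisim_of_dim_eight (isNondegenerateQuadraticForm_quadFormPlus m)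
    (by simp only [Fintype.card_sum, Fintype.card_fin]; omega)
    (fun _ _ h => by simp only [Fintype.card_sum, Fintype.card_fin] at h; omega) β

end CfsgLib.AutOrth
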